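import Cfsg.Agent.Lib.Helper21.O10.Defs
import Cfsg.Agent.Lib.Helper57.OE.Base
import Cfsg.Agent.Lib.Helper94.QuadWrap

set_option autoImplicit false

/-! # The number of singular vectors of a quadratic form of plus type -/

namespace Cfsg.Agent.Lib.Helper21.O10

open Cfsg Cfsg.Geo Matrix Cfsg.Agent.Lib.Helper13.Asch Cfsg.Agent.Lib.Helper90.Sp
  Cfsg.Agent.Lib.Helper57.OE
open scoped Kronecker MatrixGroups

variable {ι : Type} [Fintype ι] [DecidableEq ι] {F : Type*} [Field F] {Q : (ι → F) → F}

/-- the fibres of a non-zero linear functional -/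
theorem card_fibre [Fintype F] {V : Type*} [AddCommGroup V] [Module F V] [FiniteDimensional F V]
    (φ : V →ₗ[F] F) (hφ : φ ≠ 0) (c : F) :
    Nat.card {u : V // φ u = c} = Fintype.card F ^ (Module.finrank F V - 1) := by
  have hsurj : Function.Surjective φ := by
    obtain ⟨x, hx⟩ : ∃ x, φ x ≠ 0 := by
      by_contra h
      push Not at h
      exact hφ (LinearMap.ext h)
    intro a
    exact ⟨(a / φ x) • x, by rw [map_smul, smul_eq_mul, div_mul_cancel₀ _ hx]⟩
  obtain ⟨u0, hu0⟩ := hsurj c
  have e : {u : V // φ u = c} ≃ LinearMap.ker φ :=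
    { toFun := fun u => ⟨u.1 - u0, by rw [LinearMap.mem_ker, map_sub, u.2, hu0, sub_self]⟩
      invFun := fun k => ⟨k.1 + u0, by rw [map_add, LinearMap.mem_ker.1 k.2, hu0, zero_add]⟩
      left_inv := fun u => by simp
      right_inv := fun k => by simp }
  rw [Nat.card_congr e, Module.natCard_eq_pow_finrank (K := F), Nat.card_eq_fintype_card]
  congr 1
  have h1 := LinearMap.finrank_range_add_finrank_ker φ
  rw [LinearMap.range_eq_top.2 hsurj, finrank_top, Module.finrank_self] at h1
  omega

/-- U0 -/
theorem card_singular_of_plus [Fintype F] (hQ : IsNondegenerateQuadraticForm Q) {m : ℕ}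
    (hm : 0 < m) (hι : Fintype.card ι = 2 * m) (hplus : IsPlusTypeOn Q ⊤) :
    Nat.card {v : ι → F // Q v = 0} + Fintype.card F ^ (m - 1) =
      Fintype.card F ^ (2 * m - 1) + Fintype.card F ^ m := by
  classical
  obtain ⟨U, -, hU, hdim⟩ := hplus
  have hV : Module.finrank F (ι → F) = 2 * m := by rw [Module.finrank_fintype_fun_eq_card, hι]
  rw [finrank_top, hV] at hdim
  have hUm : Module.finrank F U = m := by omega
  set B := Cfsg.Agent.Lib.Helper94.pB (Cfsg.Agent.Lib.Helper94.quadOf Q hQ) with hB
  have hBn : B.Nondegenerate := Cfsg.Agent.Lib.Helper94.pB_quadOf_nondegenerate Q hQ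
  have hBa : ∀ x y, B x y = QuadraticMap.polar Q x y := fun x y => rfl
  -- `U` is its own orthogonal complement
  have hle : U ≤ B.orthogonal U := by
    intro x hx
    rw [LinearMap.BilinForm.mem_orthogonal_iff]
    intro y hy
    change B y x = 0
    rw [hBa, QuadraticMap.polar, hU _ (U.add_mem hy hx), hU _ hy, hU _ hx]
    simp
  have hperp : B.orthogonal U = U := by
    refine (Submodule.eq_of_le_of_finrank_le hle ?_).symm
    rw [LinearMap.BilinForm.finrank_orthogonal hBn, hV, hUm]
    omega
  obtain ⟨U', hc⟩ := Submodule.exists_isCompl U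
  have hU'm : Module.finrank F U' = m := by
    have := Submodule.finrank_add_eq_of_isCompl hc
    omega
  -- the functional attached to `u'`
  let φ : U' → (U →ₗ[F] F) := fun u' => (B.flip u'.1).comp U.subtype
  have hφa : ∀ (u' : U') (u : U), φ u' u = QuadraticMap.polar Q u.1 u'.1 := fun u' u => rfl
  have hφ0 : ∀ u' : U', u' ≠ 0 → φ u' ≠ 0 := by
    intro u' hu' h0
    apply hu'
    have h1 : u'.1 ∈ B.orthogonal U := by
      rw [LinearMap.BilinForm.mem_orthogonal_iff]
      intro y hy
      change B y u'.1 = 0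
      have := LinearMap.congr_fun h0 ⟨y, hy⟩
      rw [hφa] at this
      exact this
    rw [hperp] at h1
    have h2 : u'.1 ∈ U ⊓ U' := ⟨h1, u'.2⟩
    rw [hc.inf_eq_bot, Submodule.mem_bot] at h2
    exact Subtype.ext h2
  -- the bijection
  have e : {v : ι → F // Q v = 0} ≃ Σ u' : U', {u : U // φ u' u = - Q u'.1} :=
    { toFun := fun v =>
        ⟨((Submodule.prodEquivOfIsCompl U U' hc).symm v.1).2,
          ⟨((Submodule.prodEquivOfIsCompl U U' hc).symm v.1).1, by
            have h1 : (((Submodule.prodEquivOfIsCompl U U' hc).symm v.1).1 : ι → F) +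
                (((Submodule.prodEquivOfIsCompl U U' hc).symm v.1).2 : ι → F) = v.1 := by
              have := (Submodule.prodEquivOfIsCompl U U' hc).apply_symm_apply v.1
              rwa [Submodule.coe_prodEquivOfIsCompl'] at this
            have h2 := v.2
            rw [← h1, Q_add Q, hU _ (Subtype.coe_prop _), zero_add] at h2
            rw [hφa]
            linear_combination h2⟩⟩
      invFun := fun p => ⟨p.2.1.1 + p.1.1, by
        have h2 := p.2.2
        rw [hφa] at h2
        rw [Q_add Q, hU _ p.2.1.2, h2]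
        ring⟩
      left_inv := by
        intro v
        apply Subtype.ext
        have := (Submodule.prodEquivOfIsCompl U U' hc).apply_symm_apply v.1
        rwa [Submodule.coe_prodEquivOfIsCompl'] at this
      right_inv := by
        rintro ⟨u', ⟨u, hu⟩⟩
        have h1 : (Submodule.prodEquivOfIsCompl U U' hc).symm (u.1 + u'.1) = (u, u') := by
          rw [LinearEquiv.symm_apply_eq, Submodule.coe_prodEquivOfIsCompl']
        have h2 : ((Submodule.prodEquivOfIsCompl U U' hc).symm (u.1 + u'.1)).2 = u' := by rw [h1]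
        have h3 : ((Submodule.prodEquivOfIsCompl U U' hc).symm (u.1 + u'.1)).1 = u := by rw [h1]
        refine Sigma.ext h2 ?_
        refine (Subtype.heq_iff_coe_eq ?_).2 h3
        intro x
        change (φ ((Submodule.prodEquivOfIsCompl U U' hc).symm (u.1 + u'.1)).2 x =
          - Q ((Submodule.prodEquivOfIsCompl U U' hc).symm (u.1 + u'.1)).2.1) ↔ _
        rw [h2] }
  have hcardU : Nat.card U = Fintype.card F ^ m := by
    rw [Module.natCard_eq_pow_finrank (K := F), Nat.card_eq_fintype_card, hUm]
  have hcardU' : Fintype.card U' = Fintype.card F ^ m := by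
    rw [← Nat.card_eq_fintype_card, Module.natCard_eq_pow_finrank (K := F),
      Nat.card_eq_fintype_card, hU'm]
  have hfib : ∀ u' : U', Nat.card {u : U // φ u' u = - Q u'.1} =
      if u' = 0 then Fintype.card F ^ m else Fintype.card F ^ (m - 1) := by
    intro u'
    split_ifs with h
    · subst h
      have : ∀ u : U, φ 0 u = - Q ((0 : U') : ι → F) := by
        intro u
        rw [hφa]
        simp [Q_zero hQ, QuadraticMap.polar]
      rw [← hcardU]
      exact Nat.card_congr (Equiv.subtypeUnivEquiv this)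
    · rw [card_fibre (φ u') (hφ0 u' h), hUm]
  rw [Nat.card_congr e, Nat.card_sigma]
  simp only [hfib]
  rw [Finset.sum_ite, Finset.sum_const, Finset.sum_const, Finset.filter_eq' , if_pos (Finset.mem_univ _),
    Finset.card_singleton, Finset.filter_ne', Finset.card_erase_of_mem (Finset.mem_univ _),
    Finset.card_univ, hcardU']
  simp only [smul_eq_mul, one_mul]
  obtain ⟨s, rfl⟩ : ∃ s, m = s + 1 := ⟨m - 1, by omega⟩
  have h1 : 2 * (s + 1) - 1 = (s + 1) + s := by omega
  rw [h1, Nat.add_sub_cancel, pow_add _ (s + 1) s]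
  have hpos : 0 < Fintype.card F ^ (s + 1) := pow_pos Fintype.card_pos _
  obtain ⟨a, ha⟩ : ∃ a, Fintype.card F ^ (s + 1) = a + 1 := ⟨_, (Nat.succ_pred_eq_of_pos hpos).symm⟩
  rw [ha, Nat.add_sub_cancel]
  ring

end Cfsg.Agent.Lib.Helper21.O10
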