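import Cfsg.Agent.Lib.Helper21.O10.Defs
import Cfsg.Agent.Lib.Helper57.OE.Base
import Cfsg.Agent.Lib.Helper57.OE.Defs2
import Cfsg.Agent.Lib.Helper94.QuadWrap
import Cfsg.Agent.Lib.Helper12.OE.ZR

set_option autoImplicit false

/-! # The two versions of "a pair of complementary totally singular subspaces" -/

namespace Cfsg.Agent.Lib.Helper21.O10

open Cfsg Cfsg.Geo Matrix Cfsg.Agent.Lib.Helper13.Asch Cfsg.Agent.Lib.Helper90.Sp
open scoped Kronecker MatrixGroups

variable {ι : Type} [Fintype ι] [DecidableEq ι] {F : Type*} [Field F] {Q : (ι → F) → F}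

/-- B1 -/
theorem rpair_bridge (hQ : IsNondegenerateQuadraticForm Q) (hι : 0 < Fintype.card ι)
    {H : Subgroup (GL ι F)} (h : RPair Q H) : Cfsg.Agent.Lib.Helper57.OE.RPair Q H := by
  classical
  obtain ⟨U, U', hcompl, hU, hU', hH⟩ := h
  set B := Cfsg.Agent.Lib.Helper94.pB (Cfsg.Agent.Lib.Helper94.quadOf Q hQ) with hB
  have hBnd : B.Nondegenerate := Cfsg.Agent.Lib.Helper94.pB_quadOf_nondegenerate Q hQ
  have hBap : ∀ x y, B x y = QuadraticMap.polar Q x y := fun x y => rfl
  have iso : ∀ X : Submodule F (ι → F), IsTotallySingularQuad Q X → X ≤ B.orthogonal X := by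
    intro X hX u hu
    rw [LinearMap.BilinForm.mem_orthogonal_iff]
    intro v hv
    show B v u = 0
    rw [hBap]
    unfold QuadraticMap.polar
    rw [hX _ (X.add_mem hv hu), hX _ hv, hX _ hu]
    ring
  have hsum := Submodule.finrank_add_eq_of_isCompl hcompl
  have hf1 := LinearMap.BilinForm.finrank_orthogonal hBnd U
  have hf2 := LinearMap.BilinForm.finrank_orthogonal hBnd U'
  have hl1 := Submodule.finrank_mono (iso U hU)
  have hl2 := Submodule.finrank_mono (iso U' hU')
  have hV : Module.finrank F (ι → F) = Fintype.card ι := Module.finrank_fintype_fun_eq_card F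
  have hUU' : Module.finrank F U = Module.finrank F U' := by omega
  refine ⟨Module.finrank F U, ![U, U'],
    Cfsg.Agent.Lib.Helper12.OE.isMDecomposition_pair hcompl (by omega) rfl hUU'.symm, ?_, ?_⟩
  · intro i
    fin_cases i
    · exact hU
    · exact hU'
  · intro g hg
    rcases hH g hg with ⟨h1, h2⟩ | ⟨h1, h2⟩
    · refine ⟨1, fun i => ?_⟩
      fin_cases i
      · exact h1
      · exact h2
    · refine ⟨Equiv.swap 0 1, fun i => ?_⟩
      fin_cases i
      · exact h1
      · exact h2

end Cfsg.Agent.Lib.Helper21.O10
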