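import Cfsg.Agent.Lib.Helper21.O10.Defs
import Cfsg.Agent.Lib.Helper57.OE.Base
import Cfsg.Agent.Lib.Helper37.OE.P1a
import Cfsg.Agent.Lib.Helper62.OE.T7
import Cfsg.Agent.Lib.Helper21.O10.U0
import Cfsg.Agent.Lib.Helper60.O10.U1a
import Cfsg.Agent.Lib.Helper89.O10.U1b
import Cfsg.Agent.Lib.Helper60.O10.U2a
import Cfsg.Agent.Lib.Helper60.O10.U2b
import Cfsg.Agent.Lib.Helper60.O10.U2
import Cfsg.Agent.Lib.Helper60.O10.U3a
import Cfsg.Agent.Lib.Helper60.O10.U3
import Cfsg.Agent.Lib.Helper1.O10.H0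
import Cfsg.Agent.Lib.Helper52.O10.H1
import Cfsg.Agent.Lib.Helper52.O10.H2
import Cfsg.Agent.Lib.Helper1.O10.H4
import Cfsg.Agent.Lib.Helper89.O10.H6
import Cfsg.Agent.Lib.Helper1.O10.H7
import Cfsg.Agent.Lib.Helper63.O10.P1
import Cfsg.Agent.Lib.Helper63.O10.P2
import Cfsg.Agent.Lib.Helper63.O10.P3
import Cfsg.Agent.Lib.Helper63.O10.P4

set_option autoImplicit false

namespace Cfsg.Agent.Lib.Helper21.O10

open Cfsg Cfsg.Geo Matrix Cfsg.Agent.Lib.Helper13.Asch Cfsg.Agent.Lib.Helper90.Sp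
  Cfsg.Agent.Lib.Helper57.OE
open Cfsg.Agent.Lib.Helper1.O10 Cfsg.Agent.Lib.Helper52.O10 Cfsg.Agent.Lib.Helper60.O10 Cfsg.Agent.Lib.Helper63.O10 Cfsg.Agent.Lib.Helper89.O10
open scoped Kronecker MatrixGroups

variable {ι : Type} [Fintype ι] [DecidableEq ι] {F : Type*} [Field F] {Q : (ι → F) → F}

/-! ## U: fields of degree 2 -/

/-- U1 (assembly) -/
theorem not_plus_of_similitude_field [Fintype F] (hQ : IsNondegenerateQuadraticForm Q)
    (hι : Fintype.card ι = 10) (K : Subalgebra F (Matrix ι ι F)) (hK : IsFieldSubalgebra 2 K)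
    (hsim : ∀ k ∈ K, ∃ c : F, ∀ v, Q (k *ᵥ v) = c * Q v) : ¬ IsPlusTypeOn Q ⊤ := by
  intro hplus
  have h1 := card_singular_of_plus hQ (m := 5) (by norm_num) (by rw [hι]) hplus
  exact arith_ten (Fintype.one_lt_card (α := F)) h1 (dvd_card_singular hQ K hK hsim)

/-! ## H: halves -/

/-- HS (assembly) -/
theorem plus_iff_of_similar_halves [Fintype F] (hQ : IsNondegenerateQuadraticForm Q)
    (hι : Fintype.card ι = 10)
    (W W' : Submodule F (ι → F)) (φ : (ι → F) →ₗ[F] (ι → F)) (δ : F) (hc : IsCompl W W')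
    (horth : ∀ w ∈ W, ∀ w' ∈ W', QuadraticMap.polar Q w w' = 0)
    (hφ : ∀ w ∈ W, φ w ∈ W' ∧ Q (φ w) = δ * Q w) (hδ : δ ≠ 0)
    (hdim : 2 * Module.finrank F W = Fintype.card ι) :
    IsPlusTypeOn Q ⊤ ↔ IsSquare (-δ) := by
  have : Nonempty ι := Fintype.card_pos_iff.1 (by omega)
  constructor
  · intro hplus
    by_contra hsq
    obtain ⟨J, h1, h2, h3⟩ := exists_J_of_similar_halves hQ W W' φ δ hc horth hφ hδ hdim
    exact not_plus_of_J hQ hι J (-δ) δ hsq h1 h2 h3 hplus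
  · exact plus_of_similar_halves hQ W W' φ δ hc horth hφ hδ hdim

/-- H3 (assembly): an even number of isometric blocks -/
theorem plus_iff_of_even_decomp [Fintype F] (hQ : IsNondegenerateQuadraticForm Q)
    (hι : Fintype.card ι = 10) {t k : ℕ} (D : Fin t → Submodule F (ι → F))
    (hD : IsOrthogonalMDecomposition Q k D) (ht : Even t) :
    IsPlusTypeOn Q ⊤ ↔ Fintype.card F % 4 ≠ 3 := by
  obtain ⟨W, W', φ, hc, horth, hφ, hdim⟩ :=
    Cfsg.Agent.Lib.Helper37.OE.halves_of_even_decomp hQ D hD ht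
  rw [plus_iff_of_similar_halves hQ hι W W' φ 1 hc horth (fun w hw => by
    rw [one_mul]; exact hφ w hw) one_ne_zero hdim, FiniteField.isSquare_neg_one_iff]

/-- H8 (assembly): two non-isometric halves -/
theorem plus_iff_of_nonisometric [Fintype F] (h2 : (2 : F) ≠ 0)
    (hQ : IsNondegenerateQuadraticForm Q) (hι : Fintype.card ι = 10)
    (D : Fin 2 → Submodule F (ι → F))
    (hD : IsNondegenerateMDecomposition (QuadraticMap.polar Q) 5 D)
    (hni : ¬ AreIsometricFor Q (D 0) (D 1)) :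
    IsPlusTypeOn Q ⊤ ↔ Fintype.card F % 4 = 3 := by
  obtain ⟨hc, horth, hdim⟩ := halves_of_two D hD
  have h01 : Module.finrank F (D 0) = Module.finrank F (D 1) := by
    rw [hD.decomp.finrank_eq, hD.decomp.finrank_eq]
  obtain ⟨φ, δ, hδ, hφ⟩ := exists_similarity h2 hQ (D 0) (D 1) (hD.nondegenerate 0)
    (hD.nondegenerate 1) h01 (by rw [hD.decomp.finrank_eq]; decide)
  have hns : ¬ IsSquare δ := fun hsq =>
    hni (isometric_of_square_similarity hQ (D 0) (D 1) (hD.nondegenerate 0) h01 φ δ hδ hsq hφ)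
  rw [plus_iff_of_similar_halves hQ hι (D 0) (D 1) φ δ hc horth hφ hδ hdim,
    isSquare_neg_iff_of_not_isSquare h2 hns]

/-! ## P: five planes -/

/-- PA (assembly): isometric anisotropic planes -/
theorem not_plus_of_minus_planes [Fintype F] (hQ : IsNondegenerateQuadraticForm Q)
    (hι : Fintype.card ι = 10) {t : ℕ} (D : Fin t → Submodule F (ι → F))
    (hD : IsOrthogonalMDecomposition Q 2 D) (i₀ : Fin t) (h0 : ¬ IsPlusTypeOn Q (D i₀)) :
    ¬ IsPlusTypeOn Q ⊤ := by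
  have : Nonempty ι := Fintype.card_pos_iff.1 (by omega)
  obtain ⟨x, y, a, b, c, hx, hy, hspan, hli, hform⟩ := planes_normal_form hQ D hD
  have han := aniso_of_not_plus hQ (D i₀) (hD.decomp.decomp.finrank_eq i₀) h0
  have haniso : ∀ α β : F, a * α ^ 2 + b * (α * β) + c * β ^ 2 = 0 → α = 0 ∧ β = 0 := by
    intro α β h
    have h1 := hform (Pi.single i₀ α) (Pi.single i₀ β)
    have h2 : ∑ i : Fin t, ((Pi.single i₀ α : Fin t → F) i • x i + (Pi.single i₀ β : Fin t → F) i • y i) =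
        α • x i₀ + β • y i₀ := by
      rw [Finset.sum_eq_single i₀]
      · simp
      · intro i _ hi
        simp [Pi.single_eq_of_ne hi]
      · simp
    have h3 : ∑ i : Fin t, (a * (Pi.single i₀ α : Fin t → F) i ^ 2 +
        b * ((Pi.single i₀ α : Fin t → F) i * (Pi.single i₀ β : Fin t → F) i) +
        c * (Pi.single i₀ β : Fin t → F) i ^ 2) = a * α ^ 2 + b * (α * β) + c * β ^ 2 := by
      rw [Finset.sum_eq_single i₀]
      · simp
      · intro i _ hi
        simp [Pi.single_eq_of_ne hi]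
      · simp
    rw [h2, h3, h] at h1
    have h4 := han _ ((D i₀).add_mem ((D i₀).smul_mem α (hx i₀)) ((D i₀).smul_mem β (hy i₀))) h1
    have h5 := Fintype.linearIndependent_iff.1 hli (Sum.elim (Pi.single i₀ α) (Pi.single i₀ β)) (by
      rw [Fintype.sum_sum_type]
      simp only [Sum.elim_inl, Sum.elim_inr]
      rw [← Finset.sum_add_distrib, h2, h4])
    exact ⟨by simpa using h5 (Sum.inl i₀), by simpa using h5 (Sum.inr i₀)⟩
  obtain ⟨K, hK, hsim⟩ := field_of_planes hQ x y a b c hspan hli hform haniso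
  exact not_plus_of_similitude_field hQ hι K hK hsim

end Cfsg.Agent.Lib.Helper21.O10
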