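import Cfsg.Agent.Lib.Helper21.O10.Core10
import Cfsg.Agent.Lib.Helper21.O10.Types10
import Cfsg.Agent.Lib.Helper21.O10.B1
import Cfsg.Agent.Lib.Helper37.OE.P1a
import Cfsg.Agent.Lib.Helper62.OE.T7
import Cfsg.Agent.Lib.Helper90.OE.Defs10
import Cfsg.Agent.Lib.Helper37.OE.P6b
import Cfsg.Agent.Lib.Helper12.OE.ZR

set_option autoImplicit false

/-! # Bridge to the interface of the rows in dimension 10 (section INTERFACE 3 of
`stubs/OE/StubsR10.lean`) -/

namespace Cfsg.Agent.Lib.Helper21.O10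

open Cfsg Cfsg.Geo Matrix Cfsg.Agent.Lib.Helper13.Asch Cfsg.Agent.Lib.Helper90.Sp
  Cfsg.Agent.Lib.Helper57.OE
open Cfsg.Agent.Lib.Helper12.OE (orthDecomp_of_isometric)
open Cfsg.Agent.Lib.Helper1.O10 Cfsg.Agent.Lib.Helper52.O10 Cfsg.Agent.Lib.Helper60.O10 Cfsg.Agent.Lib.Helper63.O10 Cfsg.Agent.Lib.Helper89.O10
open scoped Kronecker MatrixGroups

variable {ι : Type} [Fintype ι] [DecidableEq ι] {F : Type*} [Field F] {Q : (ι → F) → F}

namespace Bridge

theorem core10 [Fintype F] (hι : Fintype.card ι = 10) (hQ : IsNondegenerateQuadraticForm Q)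
    (H : Subgroup (GL ι F)) (hH : FixesQuadForm (matrixSet H) Q) :
    RSing Q H ∨ RNd Q H ∨ (¬ Odd (Fintype.card F) ∧ RVec Q H) ∨ RDec Q H ∨
      Cfsg.Agent.Lib.Helper57.OE.RPair Q H ∨ Cfsg.Agent.Lib.Helper90.OE.RF2 Q H ∨
      RSub Q H ∨ InOrthogonalResidualClass H := by
  rcases O10.core10 hι hQ H hH with (h | h | h | h | h | h | h) | h
  · exact Or.inl h
  · exact Or.inr (Or.inl h)
  · exact Or.inr (Or.inr (Or.inl h))
  · exact Or.inr (Or.inr (Or.inr (Or.inl h)))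
  · exact Or.inr (Or.inr (Or.inr (Or.inr (Or.inl (rpair_bridge hQ (by omega) h)))))
  · exact Or.inr (Or.inr (Or.inr (Or.inr (Or.inr (Or.inl h)))))
  · exact Or.inr (Or.inr (Or.inr (Or.inr (Or.inr (Or.inr (Or.inl h))))))
  · exact Or.inr (Or.inr (Or.inr (Or.inr (Or.inr (Or.inr (Or.inr h))))))

theorem not_plus_of_similitude_field [Fintype F] (hι : Fintype.card ι = 10)
    (hQ : IsNondegenerateQuadraticForm Q) (K : Subalgebra F (Matrix ι ι F))
    (hK : IsFieldSubalgebra 2 K) (hsim : ∀ k ∈ K, ∃ c : F, ∀ v : ι → F, Q (k *ᵥ v) = c * Q v) :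
    ¬ IsPlusTypeOn Q ⊤ := O10.not_plus_of_similitude_field hQ hι K hK hsim

theorem similitude_of_not_selfadjoint [Fintype F] (hι : 3 ≤ Fintype.card ι)
    (hQ : IsNondegenerateQuadraticForm Q) {H : Subgroup (GL ι F)}
    (hH : FixesQuadForm (matrixSet H) Q) (hirr : ActsIrreducibly (matrixSet H))
    (K : Subalgebra F (Matrix ι ι F)) (hK : IsFieldSubalgebra 2 K)
    (hadj : IsAdjointClosedFor (QuadraticMap.polar Q) K)
    (hns : ¬ IsSelfAdjointFor (QuadraticMap.polar Q) K) (hle : H ≤ subalgebraNormalizer K) :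
    ∀ k ∈ K, ∃ c : F, ∀ v : ι → F, Q (k *ᵥ v) = c * Q v :=
  similitude_of_unitary hQ hι hH hirr K hK hadj hns hle

theorem odd_of_selfadjoint_field [Fintype F] (hι : Fintype.card ι = 10)
    (hQ : IsNondegenerateQuadraticForm Q) {H : Subgroup (GL ι F)}
    (hH : FixesQuadForm (matrixSet H) Q) (hirr : ActsIrreducibly (matrixSet H))
    (K : Subalgebra F (Matrix ι ι F)) (hK : IsFieldSubalgebra 2 K)
    (hsa : IsSelfAdjointFor (QuadraticMap.polar Q) K) (hle : H ≤ subalgebraNormalizer K) :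
    Odd (Fintype.card F) := by
  by_contra hodd
  exact no_selfadjoint_even (Cfsg.Agent.Lib.Helper1.Sp.two_eq_zero_iff.2 hodd) hQ (m := 5)
    (by decide) (by rw [hι]) K hK hsa

theorem mod_four_of_odd {q : ℕ} (h : Odd q) : q % 4 = 1 ∨ q % 4 = 3 := by
  obtain ⟨r, rfl⟩ := h
  omega

theorem plus_iff_halves [Fintype F] (hι : Fintype.card ι = 10)
    (hQ : IsNondegenerateQuadraticForm Q) (D : Fin 2 → Submodule F (ι → F))
    (hD : IsNondegenerateMDecomposition (QuadraticMap.polar Q) 5 D) :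
    IsPlusTypeOn Q ⊤ ↔ (AreIsometricFor Q (D 0) (D 1) ↔ Fintype.card F % 4 = 1) := by
  have hodd : Odd (Fintype.card F) := Cfsg.Agent.Lib.Helper37.OE.odd_card_of_odd_nondeg hQ (D 0)
    (hD.nondegenerate 0) (by rw [hD.decomp.finrank_eq]; decide)
  have h2 : (2 : F) ≠ 0 := fun h => (Cfsg.Agent.Lib.Helper1.Sp.two_eq_zero_iff.1 h) hodd
  have h4 := mod_four_of_odd hodd
  by_cases hiso : AreIsometricFor Q (D 0) (D 1)
  · rw [plus_iff_of_even_decomp hQ hι D (orthDecomp_of_isometric D hD hiso) (by decide)]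
    simp only [hiso, true_iff]
    omega
  · rw [plus_iff_of_nonisometric h2 hQ hι D hD hiso]
    simp only [hiso, false_iff]
    omega

theorem plus_iff_frame [Fintype F] (hι : Fintype.card ι = 10)
    (hQ : IsNondegenerateQuadraticForm Q) {t : ℕ} (D : Fin t → Submodule F (ι → F))
    (hD : IsOrthogonalMDecomposition Q 1 D) :
    IsPlusTypeOn Q ⊤ ↔ Fintype.card F % 4 = 1 := by
  have ht := Cfsg.Agent.Lib.Helper55.Asch.card_of_decomp D hD.decomp.decomp
  rw [hι, mul_one] at ht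
  subst ht
  have hodd : Odd (Fintype.card F) := Cfsg.Agent.Lib.Helper37.OE.odd_card_of_odd_nondeg hQ (D 0)
    (hD.decomp.nondegenerate 0) (by rw [hD.decomp.decomp.finrank_eq]; decide)
  have h4 := mod_four_of_odd hodd
  rw [plus_iff_of_even_decomp hQ hι D hD (by decide)]
  omega

theorem not_plus_of_minus_planes [Fintype F] (hι : Fintype.card ι = 10)
    (hQ : IsNondegenerateQuadraticForm Q) {t : ℕ} (D : Fin t → Submodule F (ι → F))
    (hD : IsOrthogonalMDecomposition Q 2 D) (i : Fin t) (h : ¬ IsPlusTypeOn Q (D i)) :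
    ¬ IsPlusTypeOn Q ⊤ := O10.not_plus_of_minus_planes hQ hι D hD i h

end Bridge

end Cfsg.Agent.Lib.Helper21.O10
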