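import Cfsg.Agent.Lib.Helper57.OE.Defs

set_option autoImplicit false

/-! # Orthogonal groups in dimension 10: shared vocabulary -/

namespace Cfsg.Agent.Lib.Helper21.O10

open Cfsg Cfsg.Geo Matrix Cfsg.Agent.Lib.Helper13.Asch Cfsg.Agent.Lib.Helper90.Sp
  Cfsg.Agent.Lib.Helper57.OE
open scoped Kronecker MatrixGroups

variable {ι : Type} [Fintype ι] [DecidableEq ι] {F : Type*} [Field F]

/-- `H` permutes a pair of complementary totally singular subspaces -/
def RPair (Q : (ι → F) → F) (H : Subgroup (GL ι F)) : Prop :=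
  ∃ U U' : Submodule F (ι → F), IsCompl U U' ∧ IsTotallySingularQuad Q U ∧
    IsTotallySingularQuad Q U' ∧
    ∀ h ∈ H, (U.map (Matrix.toLin' (h : Matrix ι ι F)) = U ∧
        U'.map (Matrix.toLin' (h : Matrix ι ι F)) = U') ∨
      (U.map (Matrix.toLin' (h : Matrix ι ι F)) = U' ∧
        U'.map (Matrix.toLin' (h : Matrix ι ι F)) = U)

/-- `H` normalises an extension field of degree 2 closed under adjoints -/
def RF2 (Q : (ι → F) → F) (H : Subgroup (GL ι F)) : Prop :=
  ∃ K : Subalgebra F (Matrix ι ι F), IsFieldSubalgebra 2 K ∧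
    IsAdjointClosedFor (QuadraticMap.polar Q) K ∧ H ≤ subalgebraNormalizer K

/-- `H` normalises, up to sign, a skew-adjoint matrix whose square is a non-zero scalar -/
def SkewJ (Q : (ι → F) → F) (H : Subgroup (GL ι F)) : Prop :=
  ∃ (J : Matrix ι ι F) (d : F), d ≠ 0 ∧ J * J = d • 1 ∧
    (∀ u v, QuadraticMap.polar Q (J *ᵥ u) v = - QuadraticMap.polar Q u (J *ᵥ v)) ∧
    ∀ h ∈ H, (h : Matrix ι ι F) * J * ((h⁻¹ : GL ι F) : Matrix ι ι F) = J ∨
      (h : Matrix ι ι F) * J * ((h⁻¹ : GL ι F) : Matrix ι ι F) = -J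

/-- the three outcomes of a commutative normalised algebra in dimension 10 -/
def R3 (Q : (ι → F) → F) (H : Subgroup (GL ι F)) : Prop := RDec Q H ∨ RPair Q H ∨ RF2 Q H

/-- the raw list of geometric alternatives in dimension 10 -/
def Raw10 [Fintype F] (Q : (ι → F) → F) (H : Subgroup (GL ι F)) : Prop :=
  RSing Q H ∨ RNd Q H ∨ (¬ Odd (Fintype.card F) ∧ RVec Q H) ∨ RDec Q H ∨ RPair Q H ∨ RF2 Q H ∨
    RSub Q H

/-- `x` commutes with the subalgebra `K` -/
def Cent (K : Subalgebra F (Matrix ι ι F)) (x : Matrix ι ι F) : Prop := ∀ k ∈ K, x * k = k * x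

end Cfsg.Agent.Lib.Helper21.O10
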