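import Cfsg.Agent.Lib.Helper21.O10.Defs
import Cfsg.Agent.Lib.Helper57.OE.Core
import Cfsg.Agent.Lib.Helper58.Asch.D6
import Cfsg.Agent.Lib.Helper64.O10.G1
import Cfsg.Agent.Lib.Helper64.O10.G2
import Cfsg.Agent.Lib.Helper64.O10.G3
import Cfsg.Agent.Lib.Helper64.O10.G4
import Cfsg.Agent.Lib.Helper64.O10.G567
import Cfsg.Agent.Lib.Helper2.O10.M1
import Cfsg.Agent.Lib.Helper70.O10.M2
import Cfsg.Agent.Lib.Helper51.O10.M3
import Cfsg.Agent.Lib.Helper51.O10.M4
import Cfsg.Agent.Lib.Helper2.O10.M5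
import Cfsg.Agent.Lib.Helper2.O10.M6
import Cfsg.Agent.Lib.Helper89.O10.M7
import Cfsg.Agent.Lib.Helper2.O10.M8
import Cfsg.Agent.Lib.Helper70.O10.M9
import Cfsg.Agent.Lib.Helper70.O10.M10
import Cfsg.Agent.Lib.Helper70.O10.M11
import Cfsg.Agent.Lib.Helper70.O10.M12
import Cfsg.Agent.Lib.Helper91.O10.T1
import Cfsg.Agent.Lib.Helper91.O10.T2
import Cfsg.Agent.Lib.Helper91.O10.T3
import Cfsg.Agent.Lib.Helper89.O10.T4

set_option autoImplicit false

namespace Cfsg.Agent.Lib.Helper21.O10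

open Cfsg Cfsg.Geo Matrix Cfsg.Agent.Lib.Helper13.Asch Cfsg.Agent.Lib.Helper90.Sp
  Cfsg.Agent.Lib.Helper57.OE
open Cfsg.Agent.Lib.Helper1.Sp Cfsg.Agent.Lib.Helper67.Sp Cfsg.Agent.Lib.Helper95.Sp
open Cfsg.Agent.Lib.Helper65.Sp Cfsg.Agent.Lib.Helper91.Sp
open Cfsg.Agent.Lib.Helper72.OE Cfsg.Agent.Lib.Helper12.OE Cfsg.Agent.Lib.Helper35.OE
open Cfsg.Agent.Lib.Helper62.OE
open Cfsg.Agent.Lib.Helper2.O10 Cfsg.Agent.Lib.Helper51.O10 Cfsg.Agent.Lib.Helper64.O10 Cfsg.Agent.Lib.Helper70.O10 Cfsg.Agent.Lib.Helper89.O10 Cfsg.Agent.Lib.Helper91.O10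
open scoped Kronecker MatrixGroups commutatorElement

variable {ι : Type} [Fintype ι] [DecidableEq ι] {F : Type*} [Field F] {Q : (ι → F) → F}

/-! ## G: commutative normalised algebras -/

/-- GA (assembly): an abelian normal subgroup which is not scalar -/
theorem abelian_normal [Fintype F] (hQ : IsNondegenerateQuadraticForm Q)
    (hι : 2 < Fintype.card ι) {H B : Subgroup (GL ι F)} (hH : FixesQuadForm (matrixSet H) Q)
    (hirr : ActsIrreducibly (matrixSet H)) (hBH : B ≤ H) (hnrm : Nrm H B)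
    (hab : ∀ x ∈ B, ∀ y ∈ B, x * y = y * x) (hns : ¬ B ≤ scalars ι F) : R3 Q H := by
  have hf := polar_symmForm hQ
  have hBf := fixes_mono hBH (fixesForm_polar hH)
  have hZ : H ≤ subalgebraNormalizer (env B) := fun g hg => Cfsg.Agent.Lib.Helper58.Asch.nrm_env hnrm hg
  have hcomm := env_comm_of_comm hab
  have hadj := env_adjClosed hQ.polar_bilinear hBf
  rcases comm_dichotomy' hQ hι hH hirr (env B) hZ hcomm hadj with h | h | hinv
  · exact Or.inl h
  · exact Or.inr (Or.inl h)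
  right; right
  have hnsa : ¬ IsSelfAdjointFor (QuadraticMap.polar Q) (env B) := by
    intro hsa
    apply hns
    intro x hx
    exact scalar_of_selfadjoint_field hf (env B) hinv hsa x (Algebra.subset_adjoin ⟨x, hx, rfl⟩)
      (fun u v => hBf _ ⟨x, hx, rfl⟩ u v)
  have hev := even_finrank_of_not_selfadjoint hf (env B) hcomm hinv hadj hnsa
  obtain ⟨K, hK, -, hKadj, hHK⟩ := prime_subfield_adj hf H (env B) hZ hcomm hinv hadj
    (exists_nonscalar_of_not_le hns)
  have h2 : (Module.finrank F (env B)).minFac = 2 := (Nat.minFac_eq_two_iff _).2 hev.two_dvd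
  rw [h2] at hK
  exact ⟨K, hK, hKadj, hHK⟩

/-! ## M: isometries commuting with a self-adjoint field `K` with `dim_K V = 2` -/

/-- MA (assembly): the centre of the enveloping algebra is not a field of degree 5 -/
theorem no_degree_five [Fintype F] (hQ : IsNondegenerateQuadraticForm Q)
    (hι : Fintype.card ι = 10) {H N : Subgroup (GL ι F)} (hH : FixesQuadForm (matrixSet H) Q)
    (hirr : ActsIrreducibly (matrixSet H)) (hNH : N ≤ H) (hN : Nrm H N)
    (hinv : ∀ x ∈ cenv N, x ≠ 0 → ∃ y ∈ cenv N, x * y = 1)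
    (h5 : Module.finrank F (cenv N) = 5) : R3 Q H := by
  have : Nonempty ι := Fintype.card_pos_iff.1 (by omega)
  have hf := polar_symmForm hQ
  have hNQ := fixesQuad_mono hNH hH
  have hNf := fixesForm_polar hNQ
  obtain ⟨hZ, hcomm⟩ := cenv_props hN
  have hadj := cenv_adjClosed_symm hf hNf
  have hsa : IsSelfAdjointFor (QuadraticMap.polar Q) (cenv N) := by
    by_contra hns
    have := even_finrank_of_not_selfadjoint hf (cenv N) hcomm hinv hadj hns
    rw [h5] at this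
    exact absurd this (by decide)
  have hK : IsFieldSubalgebra 5 (cenv N) := ⟨hcomm, hinv, h5⟩
  have hNK : ∀ x ∈ N, Cent (cenv N) (x : Matrix ι ι F) := by
    intro x hx k hk
    exact (Subalgebra.mem_centralizer_iff F).1 (Algebra.mem_inf.1 hk).2 _
      (Algebra.subset_adjoin ⟨x, hx, rfl⟩)
  have hab : ∀ x ∈ ⁅N, N⁆, ∀ y ∈ ⁅N, N⁆, x * y = y * x := by
    by_cases h2 : (2 : F) = 0
    · exact comm_commutator_even h2 hQ (cenv N) hK (by rw [hι]) hsa N hNQ hNK
    · exact comm_commutator_odd h2 hf (cenv N) hK (by rw [hι]) hsa N hNf hNK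
  by_cases hsc : ⁅N, N⁆ ≤ scalars ι F
  · exfalso
    have h1 := cenv_scalar_of_class_two hsc (fun x hx hc =>
      scalar_of_selfadjoint_field hf (cenv N) hinv hsa x (mem_cenv_of_central x hx hc)
        (fun u v => hNf _ ⟨x, hx, rfl⟩ u v))
    have := finrank_le_one_of_scalar (cenv N) h1
    omega
  · exact abelian_normal hQ (by omega) hH hirr ((Subgroup.commutator_le_self N).trans hNH)
      (nrm_commutator hN) hab hsc

/-! ## T: the tensor decompositions 2 ⊗ 5 -/

/-- TA (assembly) -/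
theorem of_skewJ [Fintype F] [Nonempty ι] (h2 : (2 : F) ≠ 0) (hQ : IsNondegenerateQuadraticForm Q)
    (hι : 2 < Fintype.card ι) {H : Subgroup (GL ι F)} (hH : FixesQuadForm (matrixSet H) Q)
    (hirr : ActsIrreducibly (matrixSet H)) (h : SkewJ Q H) : R3 Q H := by
  obtain ⟨J, d, hd0, hJJ, hadj, hperm⟩ := h
  by_cases hsq : IsSquare d
  · obtain ⟨c, rfl⟩ := hsq
    have hc : c ≠ 0 := fun h => hd0 (by rw [h, mul_zero])
    obtain ⟨e, h1, h2', h3⟩ := idempotent_of_skewJ h2 hQ.polar_bilinear J c hc hJJ hadj hperm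
    exact Or.inr (Or.inl (pair_of_idempotent hQ hι hH hirr e h1 h2' h3))
  · exact Or.inr (Or.inr (rf2_of_skewJ J d hsq hJJ hadj hQ.polar_bilinear hperm))

theorem dims_ten {a b : ℕ} (ha : 2 ≤ a) (hb : 2 ≤ b) (h : a * b = 10) :
    (a = 2 ∧ b = 5) ∨ (a = 5 ∧ b = 2) := by
  have ha5 : a ≤ 5 := by nlinarith
  interval_cases a <;> omega

/-- TT (assembly) -/
theorem tensor_ten [Fintype F] [Nonempty ι] (hι : Fintype.card ι = 10)
    (hQ : IsNondegenerateQuadraticForm Q) {H : Subgroup (GL ι F)}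
    (hH : FixesQuadForm (matrixSet H) Q) (hirr : ActsIrreducibly (matrixSet H)) {a b : ℕ}
    (ha : 2 ≤ a) (hb : 2 ≤ b) (e : ι ≃ Fin a × Fin b) (P : GL ι F)
    (hHt : H ≤ tensorProductSubgroup a b e P)
    (hadj : ∀ X : Matrix (Fin a) (Fin a) F, ∃ Y : Matrix (Fin a) (Fin a) F,
      ∀ u v, QuadraticMap.polar Q (embL e P X *ᵥ u) v = QuadraticMap.polar Q u (embL e P Y *ᵥ v)) :
    R3 Q H := by
  obtain ⟨G₁, G₂, hG, h1, h2, hs⟩ := tensGram_of_adj_symm (polar_symmForm hQ) e P hadj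
  have hcard : a * b = 10 := by
    have := Fintype.card_congr e
    rw [hι] at this
    simpa using this.symm
  have hHt' : H ≤ tensorProductSubgroup b a (e.trans (Equiv.prodComm _ _)) P := by
    rw [← Cfsg.Agent.Lib.Helper35.Asch.tensor_swap]; exact hHt
  have hf := fixesForm_polar hH
  have h5 : Odd 5 := by decide
  have hcases := dims_ten ha hb hcard
  by_cases hodd : Odd (Fintype.card F)
  · have h20 : (2 : F) ≠ 0 := fun h => (two_eq_zero_iff.1 h) hodd
    rcases hs with ⟨hs1, hs2⟩ | ⟨hs1, hs2⟩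
    · rcases hcases with ⟨rfl, rfl⟩ | ⟨rfl, rfl⟩
      · exact of_skewJ h20 hQ (by omega) hH hirr (skewJ_of_tensor_two h20 hQ hH e P hG h1 h2 hs1 hHt)
      · exact of_skewJ h20 hQ (by omega) hH hirr (skewJ_of_tensor_two h20 hQ hH _ P
          (Cfsg.Agent.Lib.Helper65.Sp.TensGram.swap hG) h2 h1 hs2 hHt')
    · rcases hcases with ⟨rfl, rfl⟩ | ⟨rfl, rfl⟩
      · exact (no_alt_odd h5 G₂ h2 hs2 (skew_diag h20 G₂ hs2)).elim
      · exact (no_alt_odd h5 G₁ h1 hs1 (skew_diag h20 G₁ hs1)).elim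
  · have h20 : (2 : F) = 0 := two_eq_zero_iff.2 hodd
    have hneg : ∀ {n : ℕ} (M : Matrix (Fin n) (Fin n) F), -M = M := by
      intro n M
      have : M + M = 0 := by rw [← two_smul F M, h20, zero_smul]
      exact neg_eq_of_add_eq_zero_left this
    have hs1 : G₁ᵀ = G₁ := by rcases hs with ⟨h, -⟩ | ⟨h, -⟩ <;> simpa [hneg] using h
    have hs2 : G₂ᵀ = G₂ := by rcases hs with ⟨-, h⟩ | ⟨-, h⟩ <;> simpa [hneg] using h
    have hd2 := diag_zero_of_irr h20 hf hirr hb e P hG h1 h2 hs2 hHt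
    have hd1 := diag_zero_of_irr h20 hf hirr ha _ P (Cfsg.Agent.Lib.Helper65.Sp.TensGram.swap hG) h2 h1 hs1 hHt'
    rcases hcases with ⟨rfl, rfl⟩ | ⟨rfl, rfl⟩
    · exact (no_alt_odd h5 G₂ h2 (by rw [hs2, hneg]) hd2).elim
    · exact (no_alt_odd h5 G₁ h1 (by rw [hs1, hneg]) hd1).elim

/-- TM (assembly) -/
theorem tensor_main_ten [Fintype F] [Nonempty ι] (hι : Fintype.card ι = 10)
    (hQ : IsNondegenerateQuadraticForm Q) {H N : Subgroup (GL ι F)}
    (hH : FixesQuadForm (matrixSet H) Q) (hirr : ActsIrreducibly (matrixSet H)) (hNH : N ≤ H)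
    (hN : Nrm H N)
    (hcentre : ∀ z ∈ env N, (∀ a ∈ env N, z * a = a * z) → ∃ c : F, z = c • 1)
    (hns : ¬ N ≤ scalars ι F) (hnt : env N ≠ ⊤) : R3 Q H := by
  obtain ⟨a, b, e, P, ha, hb, hA, hHt⟩ := tensor_structure_of_normal hirr hN hcentre hns hnt
  refine tensor_ten hι hQ hH hirr ha hb e P hHt ?_
  intro X
  obtain ⟨k', hk', hk⟩ := env_adjClosed hQ.polar_bilinear
    (fixes_mono hNH (fixesForm_polar hH)) _ ((hA _).2 ⟨X, rfl⟩)
  obtain ⟨Y, rfl⟩ := (hA _).1 hk'
  exact ⟨Y, hk⟩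

theorem minFac_of_dvd_ten {d : ℕ} (hd : d ∣ 10) (h1 : d ≠ 1) : d.minFac = 2 ∨ d = 5 := by
  have hle : d ≤ 10 := Nat.le_of_dvd (by norm_num) hd
  interval_cases d <;> first | (left; norm_num [Nat.minFac_eq_two_iff]; done) | (right; rfl) | omega | (exfalso; revert hd; decide)

/-- G (assembly) -/
theorem qp_or_class_ten [Fintype F] (hι : Fintype.card ι = 10)
    (hQ : IsNondegenerateQuadraticForm Q) {H : Subgroup (GL ι F)}
    (hH : FixesQuadForm (matrixSet H) Q) :
    Raw10 Q H ∨ (ActsIrreducibly (matrixSet H) ∧ QP H) := by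
  have : Nonempty ι := Fintype.card_pos_iff.1 (by omega)
  have r3 : R3 Q H → Raw10 Q H := by
    rintro (h | h | h)
    · exact Or.inr (Or.inr (Or.inr (Or.inl h)))
    · exact Or.inr (Or.inr (Or.inr (Or.inr (Or.inl h))))
    · exact Or.inr (Or.inr (Or.inr (Or.inr (Or.inr (Or.inl h)))))
  by_cases hirr : ActsIrreducibly (matrixSet H)
  · by_cases hc : Raw10 Q H
    · exact Or.inl hc
    refine Or.inr ⟨hirr, fun N hNH hN => ?_⟩
    by_contra hcon
    push Not at hcon
    obtain ⟨hns, hnt⟩ := hcon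
    obtain ⟨hZ, hcomm⟩ := cenv_props hN
    have hf := polar_symmForm hQ
    have hadj := cenv_adjClosed_symm hf (fixes_mono hNH (fixesForm_polar hH))
    rcases comm_dichotomy' hQ (by omega) hH hirr (cenv N) hZ hcomm hadj with h | h | hinv
    · exact hc (r3 (Or.inl h))
    · exact hc (r3 (Or.inr (Or.inl h)))
    by_cases hne : ∃ x ∈ cenv N, ∀ c : F, x ≠ c • 1
    · obtain ⟨K, hK, -, hKadj, hHK⟩ := prime_subfield_adj hf H (cenv N) hZ hcomm hinv hadj hne
      have hdvd := Cfsg.Agent.Lib.Helper58.Asch.dvd_card_of_field (cenv N) ⟨hcomm, hinv, rfl⟩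
      rw [hι] at hdvd
      have h1 : Module.finrank F (cenv N) ≠ 1 := by
        intro h1
        rw [h1, Nat.minFac_one] at hK
        obtain ⟨x, hx, hxc⟩ := hne
        have h2 : (⊥ : Subalgebra F (cenv N)) = ⊤ := Subalgebra.bot_eq_top_of_finrank_eq_one h1
        have h3 : (⟨x, hx⟩ : cenv N) ∈ (⊥ : Subalgebra F (cenv N)) := by rw [h2]; trivial
        obtain ⟨c, hc'⟩ := Algebra.mem_bot.1 h3
        apply hxc c
        have := congrArg Subtype.val hc'
        rw [Algebra.smul_def, mul_one]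
        exact this.symm
      rcases minFac_of_dvd_ten hdvd h1 with h2 | h5
      · rw [h2] at hK
        exact hc (r3 (Or.inr (Or.inr ⟨K, hK, hKadj, hHK⟩)))
      · exact hc (r3 (no_degree_five hQ hι hH hirr hNH hN hinv h5))
    · push Not at hne
      have hcentre : ∀ z ∈ env N, (∀ a ∈ env N, z * a = a * z) → ∃ c : F, z = c • 1 := by
        intro z hz hza
        refine hne z ⟨hz, ?_⟩
        refine (Subalgebra.mem_centralizer_iff F).2 ?_
        intro a ha
        exact (hza a ha).symm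
      exact hc (r3 (tensor_main_ten hι hQ hH hirr hNH hN hcentre hns hnt))
  · rcases o_reducible hQ hH hirr with h | h | h
    · exact Or.inl (Or.inl h)
    · exact Or.inl (Or.inr (Or.inl h))
    · exact Or.inl (Or.inr (Or.inr (Or.inl h)))

/-- H (assembly) -/
theorem c6_ten [Fintype F] (hι : Fintype.card ι = 10)
    (hQ : IsNondegenerateQuadraticForm Q) {H N : Subgroup (GL ι F)}
    (hH : FixesQuadForm (matrixSet H) Q) (hN : MinNormal H N) (henv : env N = ⊤)
    (hab : ⁅N, N⁆ ≤ scalars ι F) : False := by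
  have : Nonempty ι := Fintype.card_pos_iff.1 (by omega)
  have hNQ := fixesQuad_mono hN.le hH
  have hcomm : ∀ x ∈ N, ∀ y ∈ N, x * y * x⁻¹ * y⁻¹ ∈ scalars ι F := by
    intro x hx y hy
    have := hab (Subgroup.commutator_mem_commutator hx hy)
    rwa [commutatorElement_def] at this
  obtain ⟨h2, -, hx4, -, hcard2⟩ := Cfsg.Agent.Lib.Helper91.Sp.es_core (by omega)
    hQ.polar_bilinear hQ.nondegenerate (fixesForm_polar hNQ) henv hcomm
  have h1 := Cfsg.Agent.Lib.Helper96.Asch.card_eq_sq_mul N hcomm henv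
  rw [hcard2] at h1
  have hp : IsPGroup 2 N := fun x => ⟨2, Subtype.ext (hx4 x.1 x.2)⟩
  obtain ⟨j, hj⟩ := hp.exists_card_eq
  rw [h1, hι] at hj
  have h3 : 5 ∣ 2 ^ j := by rw [← hj]; norm_num
  have := Nat.Prime.dvd_of_dvd_pow Nat.prime_five h3
  omega

/-- K2 (assembly) -/
theorem components_ten [Fintype F] (hι : Fintype.card ι = 10) {H : Subgroup (GL ι F)} (hQP : QP H)
    {t : ℕ} (ht : 2 ≤ t) (P : Fin t → Subgroup (GL ι F)) (hPH : ∀ i, P i ≤ H)
    (hcomm : ∀ i j, i ≠ j → ∀ x ∈ P i, ∀ y ∈ P j, x * y = y * x)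
    (hperm : ∀ h ∈ H, ∃ σ : Equiv.Perm (Fin t), ∀ i,
      (P i).map (MulAut.conj h).toMonoidHom = P (σ i))
    (htrans : ∀ i j, ∃ h ∈ H, (P i).map (MulAut.conj h).toMonoidHom = P j)
    (hns : ∀ i, ¬ P i ≤ scalars ι F) : False := by
  have : Nonempty ι := Fintype.card_pos_iff.1 (by omega)
  obtain ⟨m, e, -, -⟩ := tensor_structure_of_family hQP ht P hPH hcomm hperm htrans hns
  have hc : m ^ t = 10 := by
    have := Fintype.card_congr e
    rw [hι] at this
    simpa using this.symm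
  obtain ⟨s, rfl⟩ : ∃ s, t = s + 2 := ⟨t - 2, by omega⟩
  have hm : m ^ 2 ∣ 10 := by rw [← hc, pow_add, mul_comm]; exact Dvd.intro _ rfl
  have hm3 : m ≤ 3 := by
    by_contra hcon
    have : 16 ≤ m ^ 2 := by nlinarith
    have := Nat.le_of_dvd (by norm_num) hm
    omega
  interval_cases m
  · simp at hc
  · simp at hc
  · norm_num at hm
  · norm_num at hm

/-- M (assembly): the core theorem in dimension 10 -/
theorem core10 [Fintype F] (hι : Fintype.card ι = 10)
    (hQ : IsNondegenerateQuadraticForm Q) (H : Subgroup (GL ι F))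
    (hH : FixesQuadForm (matrixSet H) Q) :
    Raw10 Q H ∨ InOrthogonalResidualClass H := by
  rcases qp_or_class_ten hι hQ hH with h | ⟨hirr, hQP⟩
  · exact Or.inl h
  have hι2 : 2 ≤ Fintype.card ι := by omega
  obtain ⟨N, hN⟩ := Cfsg.Agent.Lib.Helper60.Asch.exists_minNormal H (not_scalar_of_irr hι2 hirr)
  have henv : env N = ⊤ := (hQP N hN.le hN.nrm).resolve_left hN.not_sc
  by_cases hab : ⁅N, N⁆ ≤ scalars ι F
  · exact (c6_ten hι hQ hH hN henv hab).elim
  · by_cases hs : ∀ L : Subgroup (GL ι F), H ⊓ scalars ι F ≤ L → L ≤ N → Nrm N L →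
      L = H ⊓ scalars ι F ∨ L = N
    · rcases o_simple hι2 hQ hH hirr hQP hN hab hs with h | h
      · exact Or.inl (Or.inr (Or.inr (Or.inr (Or.inr (Or.inr (Or.inr h))))))
      · exact Or.inr h
    · obtain ⟨t, P, ht, h1, h2, h3, h4, h5, h6⟩ :=
        Cfsg.Agent.Lib.Helper12.Asch.exists_family hN hab hs
      exact (components_ten hι hQP ht P h1 h2 h3 h4 h5).elim

end Cfsg.Agent.Lib.Helper21.O10
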